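import Mathlib
import Cfsg.Prelude.Def_Characters
import Cfsg.Agent.Lib.Char.Induce

/-!
# Inner products of characters induced from a normal subgroup; groups of odd order
-/

set_option autoImplicit false
set_option linter.style.haveILetI false

namespace CfsgLib.Exc

open Cfsg CfsgLib.Char
open scoped ComplexConjugate

variable {G : Type*} [Group G]

/-- The conjugate `h ↦ θ (g h g⁻¹)` of an irreducible character of a normal subgroup is
irreducible. -/
theorem isIrr_conjNormal (H : Subgroup G) [hN : H.Normal] {θ : H → ℂ} (hθ : IsIrrCharacter H θ)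
    (g : G) : IsIrrCharacter H (fun h : H => θ ⟨g * h * g⁻¹, hN.conj_mem h h.2 g⟩) :=
  isIrr_comp_mulEquiv (MulAut.conjNormal g) hθ

/-- Mackey's formula for a normal subgroup. -/
theorem card_mul_inner_indFun_normal [Fintype G] (H : Subgroup G) [Fintype H] [hN : H.Normal]
    (φ θ : H → ℂ) :
    (Nat.card H : ℂ) * classInner (indFun H φ) (indFun H θ) =
      ∑ g : G, classInner φ (fun h : H => θ ⟨g * h * g⁻¹, hN.conj_mem h h.2 g⟩) := by
  rw [classInner_indFun_left H φ (isClassFunction_indFun H θ)]
  have : (fun h : H => indFun H θ h) = (Nat.card H : ℂ)⁻¹ •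
      ∑ g : G, (fun h : H => θ ⟨g * h * g⁻¹, hN.conj_mem h h.2 g⟩) := by
    funext h
    rw [indFun_apply_of_normal, Pi.smul_apply, Finset.sum_apply, smul_eq_mul]
  rw [this, classInner_smul_right, classInner_sum_right, map_inv₀, map_natCast,
    mul_inv_cancel_left₀ natCard_ne_zero]

/-- The norm of a character induced from an irreducible character of a normal subgroup. -/
theorem card_mul_inner_indFun_irr [Fintype G] (H : Subgroup G) [hN : H.Normal] {φ θ : H → ℂ}
    (hφ : IsIrrCharacter H φ) (hθ : IsIrrCharacter H θ) :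
    (Nat.card H : ℂ) * classInner (indFun H φ) (indFun H θ) =
      (Nat.card {g : G // ∀ h : H, θ ⟨g * h * g⁻¹, hN.conj_mem h h.2 g⟩ = φ h} : ℂ) := by
  classical
  rw [card_mul_inner_indFun_normal, Nat.card_eq_fintype_card, Fintype.card_subtype,
    ← Finset.sum_boole]
  refine Finset.sum_congr rfl fun g _ => ?_
  rw [classInner_irr hφ (isIrr_conjNormal H hθ g)]
  congr 1
  exact propext ⟨fun e h => (congrFun e h).symm, fun e => funext fun h => (e h).symm⟩

/-- In a group of odd order an irreducible character equal to its complex conjugate is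
principal. -/
theorem irr_eq_one_of_odd_of_conj_eq [Finite G] (hodd : Odd (Nat.card G)) {χ : G → ℂ}
    (hχ : IsIrrCharacter G χ) (hreal : ∀ g, conj (χ g) = χ g) : χ = fun _ => 1 := by
  classical
  by_contra hne
  have : Fintype G := Fintype.ofFinite G
  have hch := isCharacter_of_isIrr hχ
  have hinv : ∀ g : G, g ≠ 1 → g⁻¹ ≠ g := by
    intro g hg e
    have h2 : g ^ 2 = 1 := by rw [sq]; nth_rewrite 1 [← e]; exact inv_mul_cancel g
    have h3 : orderOf g ∣ Nat.gcd 2 (Nat.card G) :=
      Nat.dvd_gcd (orderOf_dvd_of_pow_eq_one h2) (orderOf_dvd_natCard g)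
    rw [(Nat.coprime_two_left.mpr hodd).gcd_eq_one, Nat.dvd_one, orderOf_eq_one_iff] at h3
    exact hg h3
  -- split the non-identity elements into two halves exchanged by inversion
  let r : G → ℕ := fun g => (Fintype.equivFin G g : ℕ)
  have hr : Function.Injective r := fun a b e => (Fintype.equivFin G).injective (Fin.ext e)
  let S : Finset G := Finset.univ.filter fun g => r g < r g⁻¹
  have hsplit : ∀ f : G → ℂ, (∀ g, f g⁻¹ = f g) → ∑ g, f g = f 1 + 2 * ∑ g ∈ S, f g := by
    intro f hf
    have h1 : ∑ g ∈ Finset.univ.filter (fun g => r g⁻¹ < r g), f g = ∑ g ∈ S, f g := by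
      refine Finset.sum_bij' (fun g _ => g⁻¹) (fun g _ => g⁻¹) ?_ ?_ ?_ ?_ ?_
      · intro g hg; simpa [S] using hg
      · intro g hg; simpa [S] using hg
      · intro g _; simp
      · intro g _; simp
      · intro g _; rw [hf]
    rw [← Finset.sum_filter_add_sum_filter_not Finset.univ (fun g => r g < r g⁻¹),
      ← Finset.sum_filter_add_sum_filter_not (Finset.univ.filter fun g => ¬ r g < r g⁻¹)
        (fun g => r g⁻¹ < r g), Finset.filter_filter, Finset.filter_filter]
    have h2 : (Finset.univ.filter fun g : G => ¬ r g < r g⁻¹ ∧ r g⁻¹ < r g) =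
        Finset.univ.filter (fun g => r g⁻¹ < r g) := by
      ext g; simp only [Finset.mem_filter, Finset.mem_univ, true_and]; omega
    have h3 : (Finset.univ.filter fun g : G => ¬ r g < r g⁻¹ ∧ ¬ r g⁻¹ < r g) = {1} := by
      ext g
      simp only [Finset.mem_filter, Finset.mem_univ, true_and, Finset.mem_singleton]
      constructor
      · intro h
        by_contra hg
        exact hinv g hg (hr (by omega))
      · rintro rfl; simp
    rw [h2, h3, h1, Finset.sum_singleton]
    ring
  have hsym : ∀ g, χ g⁻¹ = χ g := fun g => by rw [char_inv hch, hreal]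
  have h1 := hsplit χ hsym
  rw [sum_irr_eq_zero hχ hne] at h1
  have h2 := hsplit (fun g => χ g * conj (χ g)) (fun g => by simp only [hsym])
  rw [← card_mul_classInner, classInner_irr_self hχ, mul_one] at h2
  obtain ⟨n, -, hn⟩ := exists_irr_one_eq_nat hχ
  -- `|G| = n ^ 2 + 2 a` and `0 = n + 2 b` with algebraic integers `a`, `b`
  have ha : IsIntegral ℤ (∑ g ∈ S, χ g * conj (χ g)) := IsIntegral.sum _ fun g _ => by
    rw [hreal]; exact (isIntegral_char hch g).mul (isIntegral_char hch g)
  have hb : IsIntegral ℤ (∑ g ∈ S, χ g) := IsIntegral.sum _ fun g _ => isIntegral_char hch g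
  have hc : IsIntegral ℤ (((Nat.card G : ℚ) / 2 : ℚ) : ℂ) := by
    have : (((Nat.card G : ℚ) / 2 : ℚ) : ℂ) =
        2 * (∑ g ∈ S, χ g) * (∑ g ∈ S, χ g) + ∑ g ∈ S, χ g * conj (χ g) := by
      push_cast
      rw [hn, map_natCast] at h2
      rw [hn] at h1
      have h4 : (n : ℂ) = -2 * ∑ g ∈ S, χ g := by linear_combination -h1
      rw [h2, h4]; ring
    rw [this]
    exact ((isIntegral_natCast 2).mul hb |>.mul hb).add ha
  have h5 : IsIntegral ℤ (algebraMap ℚ ℂ ((Nat.card G : ℚ) / 2)) := hc
  rw [isIntegral_algebraMap_iff (algebraMap ℚ ℂ).injective,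
    IsIntegrallyClosed.isIntegral_iff] at h5
  obtain ⟨k, hk⟩ := h5
  have h6 : (2 * k : ℤ) = Nat.card G := by
    have hk' : (k : ℚ) = (Nat.card G : ℚ) / 2 := hk
    have : (2 * k : ℚ) = Nat.card G := by rw [hk']; ring
    exact_mod_cast this
  obtain ⟨m, hm⟩ := hodd
  omega

/-- In a group of odd order no conjugate of a nonprincipal irreducible character of a normal
subgroup is its complex conjugate. -/
theorem conjNormal_ne_conj_of_odd [Finite G] (hodd : Odd (Nat.card G)) (H : Subgroup G)
    [hN : H.Normal] {θ : H → ℂ} (hθ : IsIrrCharacter H θ) (hθ1 : θ ≠ fun _ => 1) (g : G) :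
    ¬ ∀ h : H, θ ⟨g * h * g⁻¹, hN.conj_mem h h.2 g⟩ = conj (θ h) := by
  intro hg
  apply hθ1
  apply irr_eq_one_of_odd_of_conj_eq (hodd.of_dvd_nat H.card_subgroup_dvd_card) hθ
  have hpow : ∀ k : ℕ, ∀ h : H, θ ⟨g ^ (2 * k + 1) * h * (g ^ (2 * k + 1))⁻¹,
      hN.conj_mem h h.2 _⟩ = conj (θ h) := by
    intro k
    induction k with
    | zero => intro h; simpa using hg h
    | succ k ih =>
      intro h
      have h1 := ih ⟨g * (g * h * g⁻¹) * g⁻¹, hN.conj_mem _ (hN.conj_mem h h.2 g) g⟩
      have h2 := hg ⟨g * h * g⁻¹, hN.conj_mem h h.2 g⟩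
      rw [hg h, Complex.conj_conj] at h2
      rw [h2] at h1
      rw [← h1]
      congr 2
      simp only [mul_add, pow_add, pow_one, mul_one, sq]
      group
  obtain ⟨k, hk⟩ := hodd
  intro h
  rw [← hpow k h]
  congr 1
  apply Subtype.ext
  simp only [← hk, pow_card_eq_one']
  group

/-- In a group of odd order the character induced from a nonprincipal irreducible character of a
normal subgroup is orthogonal to its complex conjugate. -/
theorem inner_conj_indFun_eq_zero_of_odd [Fintype G] (hodd : Odd (Nat.card G)) (H : Subgroup G)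
    [hN : H.Normal] {θ : H → ℂ} (hθ : IsIrrCharacter H θ) (hθ1 : θ ≠ fun _ => 1) :
    classInner (fun g => conj (indFun H θ g)) (indFun H θ) = 0 := by
  have h := card_mul_inner_indFun_irr H (isIrr_conj hθ) hθ
  have : IsEmpty {g : G // ∀ h : H, θ ⟨g * h * g⁻¹, hN.conj_mem h h.2 g⟩ = conj (θ h)} :=
    ⟨fun g => conjNormal_ne_conj_of_odd hodd H hθ hθ1 g.1 g.2⟩
  rw [@Nat.card_of_isEmpty _ this, Nat.cast_zero, mul_eq_zero, indFun_conj] at h
  exact h.resolve_left natCard_ne_zero

end CfsgLib.Exc
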